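import Cfsg.Agent.Lib.ToddCox.Suz22880.P0
set_option autoImplicit false
set_option maxRecDepth 100000
namespace Cfsg.Agent.Lib.ToddCox.Suz22880
theorem covered : Covered Eo inv W isH 60244 171550 := (Covered.trans (Covered.trans (Covered.trans (Covered.trans (Covered.trans c0 (Covered.trans c1 c2)) (Covered.trans (Covered.trans c3 c4) (Covered.trans c5 c6))) (Covered.trans (Covered.trans c7 (Covered.trans c8 c9)) (Covered.trans (Covered.trans c10 c11) (Covered.trans c12 c13)))) (Covered.trans (Covered.trans (Covered.trans c14 (Covered.trans c15 c16)) (Covered.trans (Covered.trans c17 c18) (Covered.trans c19 c20))) (Covered.trans (Covered.trans c21 (Covered.trans c22 c23)) (Covered.trans (Covered.trans c24 c25) (Covered.trans c26 c27))))) (Covered.trans (Covered.trans (Covered.trans (Covered.trans c28 (Covered.trans c29 c30)) (Covered.trans (Covered.trans c31 c32) (Covered.trans c33 c34))) (Covered.trans (Covered.trans c35 (Covered.trans c36 c37)) (Covered.trans (Covered.trans c38 c39) (Covered.trans c40 c41)))) (Covered.trans (Covered.trans (Covered.trans c42 (Covered.trans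 c43 c44)) (Covered.trans (Covered.trans c45 c46) (Covered.trans c47 c48))) (Covered.trans (Covered.trans c49 (Covered.trans c50 c51)) (Covered.trans (Covered.trans c52 c53) (Covered.trans c54 c55))))))
theorem links : LinksOK Eo cF (2 * nEv) N ys 0 22880 := (LinksOK.trans (LinksOK.trans (LinksOK.trans (LinksOK.trans k0 k1) (LinksOK.trans k2 (LinksOK.trans k3 k4))) (LinksOK.trans (LinksOK.trans k5 (LinksOK.trans k6 k7)) (LinksOK.trans k8 (LinksOK.trans k9 k10)))) (LinksOK.trans (LinksOK.trans (LinksOK.trans k11 (LinksOK.trans k12 k13)) (LinksOK.trans k14 (LinksOK.trans k15 k16))) (LinksOK.trans (LinksOK.trans k17 (LinksOK.trans k18 k19)) (LinksOK.trans k20 (LinksOK.trans k21 k22)))))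
theorem defs : ∀ c, c < nDef → chkDef Eo inv c = true := defs_of_bits 60244 13 8 (by norm_num) (by
  intro j hj
  interval_cases j
  · exact d0
  · exact d1
  · exact d2
  · exact d3
  · exact d4
  · exact d5
  · exact d6
  · exact d7
  )
theorem words : ∀ j, j < nW → wordsOK W (relR Rb inv) inv sp j = true := allBelow_spec (by norm_num [nW]) wordsGood
end Cfsg.Agent.Lib.ToddCox.Suz22880
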