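import Cfsg.Agent.Lib.ToddCox.Suz22880.Cert
import Cfsg.Agent.Lib.ToddCox.Suz22880.TabCert
import Cfsg.Prelude.Def_Spor_Suz
set_option autoImplicit false
set_option maxRecDepth 100000
namespace Cfsg.Agent.Lib.ToddCox.Suz22880
open Cfsg.Spor Cfsg.Spor.Suz

abbrev rels : Set (FreeGroup Gen) := coxRelators edges ∪ {r | r ∈ extra}
def RL : List (FreeGroup Gen) := coxList edges ++ extra
def sg : Gen → Bool → ℕ
  | .a, _ => 0
  | .b, _ => 1
  | .c, _ => 2
  | .d, _ => 3
  | .e, _ => 4
  | .f, _ => 5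
  | .g, _ => 6
def LT : List (FreeGroup Gen) := [a, b, c, d, e, f, g]
def Iv : List Gen := [.a, .b, .c, .d, .e, .f, .g]
def Sl : List (FreeGroup Gen) := [a, b, c, d, f, g]
def Gl : List (FreeGroup Gen) := Sl ++ [a, b, c, d, e, f, g]

theorem t1 : ∀ x ∈ Iv, [(x, true), (x, true)] ∈ RL.map FreeGroup.toWord := by decide +kernel
theorem t2 : ∀ y ∈ List.range 64, LT.getD (inv y) 1 = (LT.getD y 1)⁻¹ ∨
      (∃ x ∈ Iv, LT.getD y 1 = FreeGroup.of x ∧ LT.getD (inv y) 1 = FreeGroup.of x) := by decide +kernel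
theorem t3 : ∀ w ∈ Rb, w ∈ RL.map (relW sg) ∨ freeVal LT w = 1 := by decide +kernel
theorem t4 : ∀ y ∈ Hl, LT.getD y 1 ∈ Sl := by decide +kernel
theorem t5 : Tw = Gl.map (relW sg) := by decide +kernel
theorem t6 : Sw = Sl.map (relW sg) := by decide +kernel
theorem t7 : ∀ r ∈ RL, relW sg r ∈ Rc ∨ invW invR (relW sg r) ∈ Rc := by decide +kernel

theorem letters : LettersOK rels RL Iv LT sg inv where
  rl := fun r hr => (mem_rels_iff edges extra r).mpr hr
  iv := t1
  sgv := by
    intro x b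
    cases x <;> cases b <;> decide +kernel
  invv := invv_of (by decide) t2

theorem hH (y : ℕ) (h : isH y = true) : PresentedGroup.mk rels (LT.getD y 1) ∈ subG rels Sl :=
  subG_mem (t4 y (List.elem_iff.mp h))

theorem upper : 0 < (subG rels Sl).index ∧ (subG rels Sl).index ≤ 22880 :=
  pres_index_le letters (subG rels Sl) Eo W isH (fun y hy => invOf_lt _ hy) Eo_lt (by decide +kernel) Rb t3 nW W_ge sp
    words hH defs covered (by decide) cF cF_zero cF_lt ys
    (by intro x; cases x <;> decide +kernel) links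

theorem rep_exists : ∃ ρ : PresentedGroup rels →* Equiv.Perm (Fin 22880),
      ∀ r (i : Fin 22880), ((ρ (PresentedGroup.mk rels r) i : Fin 22880) : ℕ) = tabW tab (relW sg r) i :=
  exists_rep (RL := RL) (m := 7) (ys := ysR) (inv := invR) (Rc := Rc) (fun r hr => (mem_rels_iff edges extra r).mp hr)
    (by decide +kernel) (by decide +kernel) (by decide +kernel) (by intro x b; cases x <;> cases b <;> decide +kernel)
    (by intro x; cases x <;> decide +kernel) t7 (facts_of_chkAll allPts).1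

theorem reach : ∀ i, 0 < i → i < 22880 → ∃ j, j < i ∧ ∃ s ∈ Gl, tabW tab (relW sg s) j = i :=
  reach_of_words t5 (facts_of_chkAll allPts).2

theorem fix0 : ∀ s ∈ Sl, tabW tab (relW sg s) 0 = 0 := by
  decide +kernel

theorem index_eq : (subG rels Sl).index = 22880 := by
  obtain ⟨ρ, hρ⟩ := rep_exists
  exact index_eq_of_rep hρ (by norm_num) upper fix0 reach

theorem set_eq : ({a, b, c, d, f, g} : Set (FreeGroup Gen)) = {r | r ∈ Sl} :=
  Set.ext fun r => by simp only [Sl, List.mem_cons, List.not_mem_nil, or_false, Set.mem_ofPred_eq, Set.mem_insert_iff, Set.mem_singleton_iff]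

end Cfsg.Agent.Lib.ToddCox.Suz22880
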